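import Cfsg.Agent.Lib.Helper50.QuadClass
import Cfsg.Agent.Lib.Helper95.OmPerp

/-!
Auxiliary geometry of a non-degenerate quadratic form over a finite field (for the rungs G2 G3 G5 of
the ladder C3O).
-/

set_option autoImplicit false

namespace Cfsg.Agent.Lib.Helper18.C3OGeo

open QuadraticMap Module

variable {K V : Type*} [Field K] [AddCommGroup V] [Module K V] {QK : QuadraticForm K V}

/-- the common perpendicular space of finitely many vectors -/
def pN (QK : QuadraticForm K V) {k : ℕ} (s : Fin k → V) : Submodule K V :=
  LinearMap.ker (LinearMap.pi fun i => polarBilin QK (s i))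

theorem mem_pN {k : ℕ} {s : Fin k → V} {u : V} : u ∈ pN QK s ↔ ∀ i, polar QK (s i) u = 0 := by
  rw [pN, LinearMap.mem_ker]
  constructor
  · intro h i
    exact congrFun h i
  · intro h
    funext i
    exact h i

theorem finrank_pN [FiniteDimensional K V] {k : ℕ} (s : Fin k → V) :
    finrank K V ≤ finrank K (pN QK s) + k := by
  have h := LinearMap.finrank_range_add_finrank_ker
    (LinearMap.pi fun i => polarBilin QK (s i) : V →ₗ[K] (Fin k → K))
  have h2 : finrank K (LinearMap.range
      (LinearMap.pi fun i => polarBilin QK (s i) : V →ₗ[K] (Fin k → K))) ≤ k := by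
    have := Submodule.finrank_le (LinearMap.range
      (LinearMap.pi fun i => polarBilin QK (s i) : V →ₗ[K] (Fin k → K)))
    simpa using this
  rw [pN]
  omega

theorem card_pN [Fintype K] [FiniteDimensional K V] {k : ℕ} (s : Fin k → V) {j : ℕ}
    (hj : j + k < finrank K V) : Fintype.card K ^ j < Nat.card (pN QK s) := by
  have h := finrank_pN (QK := QK) s
  rw [Module.natCard_eq_pow_finrank (K := K), Nat.card_eq_fintype_card]
  exact Nat.pow_lt_pow_right Fintype.one_lt_card (by omega)

theorem q_sub_smul (t b : V) (c : K) :
    QK (t - c • b) = QK t + c * c * QK b - c * polar QK t b := by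
  rw [sub_eq_add_neg, ← neg_smul, QuadraticMap.map_add QK, QuadraticMap.map_smul, polar_smul_right]
  simp only [smul_eq_mul]
  ring

theorem q_add_smul (t b : V) (c : K) :
    QK (t + c • b) = QK t + c * c * QK b + c * polar QK t b := by
  rw [QuadraticMap.map_add QK, QuadraticMap.map_smul, polar_smul_right]
  simp only [smul_eq_mul]

theorem polar_self' (x : V) : polar QK x x = 2 * QK x := by
  rw [polar_self]
  simp

/-- from a dual vector to a singular partner -/
theorem partner_of_dual {b t : V} (hb : QK b = 0) (h1 : polar QK b t = 1) :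
    QK (t - QK t • b) = 0 ∧ polar QK b (t - QK t • b) = 1 := by
  constructor
  · rw [q_sub_smul, hb, polar_comm, h1]
    ring
  · rw [polar_sub_right, polar_smul_right, polar_self', hb, h1]
    simp

/-- projection to the perpendicular space of a hyperbolic-like pair -/
theorem proj2 {x y : V} (hx : QK x = 0) (hxy : polar QK x y ≠ 0) (t : V) :
    ∃ a c : K, polar QK x (t - a • x - c • y) = 0 ∧ polar QK y (t - a • x - c • y) = 0 := by
  refine ⟨(polar QK y t - polar QK x t / polar QK x y * polar QK y y) / polar QK x y,
    polar QK x t / polar QK x y, ?_, ?_⟩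
  · simp only [polar_sub_right, polar_smul_right, smul_eq_mul, polar_self', hx]
    field_simp
    ring
  · simp only [polar_sub_right, polar_smul_right, smul_eq_mul, polar_comm QK y x]
    field_simp
    ring

/-- projection to the perpendicular space of a non-singular vector -/
theorem proj1 (h2 : (2 : K) ≠ 0) {y : V} (hy : QK y ≠ 0) (t : V) :
    ∃ c : K, polar QK y (t - c • y) = 0 := by
  refine ⟨polar QK y t / (2 * QK y), ?_⟩
  simp only [polar_sub_right, polar_smul_right, smul_eq_mul, polar_self']
  field_simp
  ring

end Cfsg.Agent.Lib.Helper18.C3OGeo
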