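import Mathlib

set_option autoImplicit false

namespace Cfsg.Agent.Lib.Helper18

theorem f4_two {F : Type*} [Field F] [Fintype F] (hF : Fintype.card F = 4) : (2 : F) = 0 := by
  have h := Nat.cast_card_eq_zero F
  rw [hF] at h
  have h4 : (2 : F) * 2 = 0 := by
    have : ((4 : ℕ) : F) = 2 * 2 := by norm_num
    rw [← this]; exact h
  exact mul_self_eq_zero.1 h4

theorem f4_struct {F : Type*} [Field F] [Fintype F] (hF : Fintype.card F = 4) :
    ∃ ω : F, ω ^ 2 + ω + 1 = 0 ∧ ∀ x : F, x = 0 ∨ x = 1 ∨ x = ω ∨ x = ω + 1 := by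
  classical
  have h2 := f4_two hF
  obtain ⟨ω, hω⟩ : ∃ ω : F, ω ∉ ({0, 1} : Finset F) := by
    by_contra hcon
    push Not at hcon
    have hsub : (Finset.univ : Finset F) ⊆ {0, 1} := fun x _ => hcon x
    have := Finset.card_le_card hsub
    have h3 : ({0, 1} : Finset F).card ≤ 2 := Finset.card_le_two
    rw [Finset.card_univ, hF] at this
    omega
  simp only [Finset.mem_insert, Finset.mem_singleton, not_or] at hω
  obtain ⟨hω0, hω1⟩ := hω
  have hpow := FiniteField.pow_card ω
  rw [hF] at hpow
  have hrel : ω ^ 2 + ω + 1 = 0 := by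
    have h3 : ω * ((ω - 1) * (ω ^ 2 + ω + 1)) = 0 := by linear_combination hpow
    rcases mul_eq_zero.1 h3 with h | h
    · exact absurd h hω0
    · rcases mul_eq_zero.1 h with h | h
      · exact absurd (sub_eq_zero.1 h) hω1
      · exact h
  refine ⟨ω, hrel, ?_⟩
  have hcard : ({0, 1, ω, ω + 1} : Finset F).card = 4 := by
    rw [Finset.card_insert_of_notMem, Finset.card_insert_of_notMem, Finset.card_insert_of_notMem,
      Finset.card_singleton]
    · simp
    · simp only [Finset.mem_insert, Finset.mem_singleton, not_or]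
      refine ⟨fun h => hω1 h.symm, fun h => hω0 ?_⟩
      linear_combination -h
    · simp only [Finset.mem_insert, Finset.mem_singleton, not_or]
      refine ⟨zero_ne_one, fun h => hω0 h.symm, fun h => hω1 ?_⟩
      linear_combination -h - h2
  have huniv := Finset.eq_univ_of_card _ (hcard.trans hF.symm)
  intro x
  have hx : x ∈ ({0, 1, ω, ω + 1} : Finset F) := by rw [huniv]; exact Finset.mem_univ x
  simpa using hx

end Cfsg.Agent.Lib.Helper18
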