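import Mathlib
import Cfsg.Prelude.Def_ClassicalGeometry
import Cfsg.Agent.Lib.Helper18.OrthPlus

set_option autoImplicit false

namespace Cfsg.Agent.Lib.Helper18

open QuadraticMap

variable {F : Type*} [Field F] (m : ℕ)

theorem polar_plusForm_single_inl (x : Fin m ⊕ Fin m → F) (i : Fin m) :
    polar ⇑(plusForm m F) x (Pi.single (Sum.inl i) 1) = x (Sum.inr i) := by
  rw [polar_plusForm]
  simp [Pi.single_apply]

theorem polar_plusForm_single_inr (x : Fin m ⊕ Fin m → F) (i : Fin m) :
    polar ⇑(plusForm m F) x (Pi.single (Sum.inr i) 1) = x (Sum.inl i) := by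
  rw [polar_plusForm]
  simp [Pi.single_apply]

/-- Non-degeneracy of the hyperbolic form in every characteristic. -/
theorem plusForm_nondeg' : (polarBilin (plusForm m F)).Nondegenerate := by
  have key : ∀ x : Fin m ⊕ Fin m → F, (∀ y, polar ⇑(plusForm m F) x y = 0) → x = 0 := by
    intro x hx
    ext k
    rcases k with i | i
    · rw [← polar_plusForm_single_inr m x i, hx]; rfl
    · rw [← polar_plusForm_single_inl m x i, hx]; rfl
  exact ⟨fun x hx => key x hx, fun y hy => key y (fun x => by rw [polar_comm]; exact hy x)⟩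

/-- Coordinate subspaces. -/
def coordSub {ι : Type*} (F : Type*) [Field F] (J : Set ι) : Submodule F (ι → F) where
  carrier := {v | ∀ k ∈ J, v k = 0}
  add_mem' {a b} ha hb k hk := by simp [ha k hk, hb k hk]
  zero_mem' k _ := rfl
  smul_mem' c a ha k hk := by simp [ha k hk]

theorem mem_coordSub {ι : Type*} {J : Set ι} {v : ι → F} : v ∈ coordSub F J ↔ ∀ k ∈ J, v k = 0 :=
  Iff.rfl

open scoped Classical in
/-- A coordinate subspace is a function space on the complement. -/
noncomputable def coordSubEquiv {ι : Type*} (J : Set ι) :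
    coordSub F J ≃ₗ[F] ({k : ι // k ∉ J} → F) where
  toFun v := fun k => v.1 k.1
  invFun x := ⟨fun k => if h : k ∈ J then 0 else x ⟨k, h⟩, fun k hk => by simp [hk]⟩
  map_add' a b := rfl
  map_smul' c a := rfl
  left_inv v := by
    ext k
    by_cases h : k ∈ J
    · simp [h, v.2 k h]
    · simp [h]
  right_inv x := by
    ext k
    simp [k.2]

theorem finrank_coordSub {ι κ : Type*} [Fintype κ] (J : Set ι) (e : κ ≃ {k : ι // k ∉ J}) :
    Module.finrank F (coordSub F J) = Fintype.card κ := by
  have : Fintype {k : ι // k ∉ J} := Fintype.ofEquiv κ e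
  rw [(coordSubEquiv (F := F) J).finrank_eq, Module.finrank_fintype_fun_eq_card,
    Fintype.card_congr e]

end Cfsg.Agent.Lib.Helper18
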