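import Cfsg.Agent.Lib.Helper44.StRestrict

/-! the (B,N)-pair of a standard parabolic subgroup -/

set_option autoImplicit false

namespace Cfsg.Agent.Lib.Helper22
open Cfsg.Agent.Lib.Helper8 Cfsg.Agent.Lib.Helper44 Cfsg

variable {G : Type*} [Group G]

theorem uni1_NJ_le_N (P : Cfsg.BNPair G) {J : Set G} (hJ : J ⊆ P.S) :
    Subgroup.closure J ⊔ (P.B ⊓ P.N) ≤ P.N :=
  sup_le (closure_le_N hJ) inf_le_right

theorem uni1_NJ_le (P : Cfsg.BNPair G) (J : Set G) :
    Subgroup.closure J ⊔ (P.B ⊓ P.N) ≤ P.parabolic J :=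
  sup_le (closure_le_parabolic J) (inf_le_left.trans (B_le_parabolic J))

theorem uni1_closure (H : Subgroup G) {I : Set G} (hI : I ⊆ H) :
    Subgroup.closure {s : H | (s : G) ∈ I} = (Subgroup.closure I).subgroupOf H := by
  apply Subgroup.map_injective H.subtype_injective
  rw [MonoidHom.map_closure, Subgroup.subgroupOf_map_subtype,
    inf_eq_left.2 ((Subgroup.closure_le H).2 hI)]
  congr 1
  ext x
  constructor
  · rintro ⟨s, hs, rfl⟩
    exact hs
  · intro hx
    exact ⟨⟨x, hI hx⟩, hx, rfl⟩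

theorem uni1_subset (P : Cfsg.BNPair G) (J : Set G) : J ⊆ (P.parabolic J : Set G) :=
  fun _ hx => closure_le_parabolic J (Subgroup.subset_closure hx)

/-- the (B,N)-pair of the parabolic subgroup `P_J`. -/
def subBN (P : Cfsg.BNPair G) (J : Set G) (hJ : J ⊆ P.S) : Cfsg.BNPair ↥(P.parabolic J) where
  B := P.B.subgroupOf (P.parabolic J)
  N := (Subgroup.closure J ⊔ (P.B ⊓ P.N)).subgroupOf (P.parabolic J)
  S := {s | (s : G) ∈ J}
  sup_eq_top := by
    rw [← Subgroup.subgroupOf_sup (B_le_parabolic J) (uni1_NJ_le P J),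
      Subgroup.subgroupOf_eq_top]
    exact sup_le le_sup_left (le_sup_left.trans le_sup_right)
  conj_mem := by
    intro n hn t ht
    exact P.conj_mem n.1 (uni1_NJ_le_N P hJ hn) t.1 ⟨ht.1, uni1_NJ_le_N P hJ ht.2⟩
  subset := by
    intro s hs
    exact (le_sup_left : Subgroup.closure J ≤ _) (Subgroup.subset_closure hs)
  sq_mem := by
    intro s hs
    exact P.sq_mem s.1 (hJ hs)
  inj := by
    intro s hs s' hs' h
    exact Subtype.ext (P.inj s.1 (hJ hs) s'.1 (hJ hs') h)
  closure_sup := by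
    have e : P.B.subgroupOf (P.parabolic J) ⊓
        (Subgroup.closure J ⊔ (P.B ⊓ P.N)).subgroupOf (P.parabolic J)
        = (P.B ⊓ (Subgroup.closure J ⊔ (P.B ⊓ P.N))).subgroupOf (P.parabolic J) := rfl
    rw [uni1_closure _ (uni1_subset P J), e, ← Subgroup.subgroupOf_sup (closure_le_parabolic J)
      (inf_le_left.trans (B_le_parabolic J))]
    congr 1
    exact le_antisymm (sup_le le_sup_left inf_le_right)
      (sup_le le_sup_left (le_sup_of_le_right (le_inf inf_le_left le_sup_right)))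
  mul_mem_union := by
    intro s hs n hn b hb
    rcases P.mul_mem_union s.1 (hJ hs) n.1 (uni1_NJ_le_N P hJ hn) b.1 hb with h | h
    · left
      obtain ⟨x, hx, y, hy, h⟩ := DoubleCoset.mem_doubleCoset.1 h
      exact DoubleCoset.mem_doubleCoset.2 ⟨⟨x, B_le_parabolic J hx⟩, hx, ⟨y, B_le_parabolic J hy⟩,
        hy, Subtype.ext h⟩
    · right
      obtain ⟨x, hx, y, hy, h⟩ := DoubleCoset.mem_doubleCoset.1 h
      exact DoubleCoset.mem_doubleCoset.2 ⟨⟨x, B_le_parabolic J hx⟩, hx, ⟨y, B_le_parabolic J hy⟩,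
        hy, Subtype.ext h⟩
  conj_ne := by
    intro s hs h
    apply P.conj_ne s.1 (hJ hs)
    ext x
    constructor
    · rintro ⟨b, hb, rfl⟩
      have : s * ⟨b, B_le_parabolic J hb⟩ * s ∈
          ((P.B.subgroupOf (P.parabolic J) : Subgroup _) : Set (P.parabolic J)) := by
        rw [← h]
        exact ⟨⟨b, B_le_parabolic J hb⟩, hb, rfl⟩
      exact this
    · intro hx
      have : (⟨x, B_le_parabolic J hx⟩ : P.parabolic J) ∈
          (fun b : P.parabolic J => s * b * s) ''
            ((P.B.subgroupOf (P.parabolic J) : Subgroup _) : Set (P.parabolic J)) := by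
        rw [h]
        exact hx
      obtain ⟨b, hb, hbx⟩ := this
      exact ⟨b.1, hb, congrArg Subtype.val hbx⟩

theorem subBN_parabolic (P : Cfsg.BNPair G) {J I : Set G} (hJ : J ⊆ P.S) (hI : I ⊆ J) :
    (subBN P J hJ).parabolic {s | (s : G) ∈ I} = (P.parabolic I).subgroupOf (P.parabolic J) := by
  have hIP : I ⊆ (P.parabolic J : Set G) := hI.trans (uni1_subset P J)
  change P.B.subgroupOf (P.parabolic J) ⊔ Subgroup.closure {s : P.parabolic J | (s : G) ∈ I} = _
  rw [uni1_closure _ hIP, ← Subgroup.subgroupOf_sup (B_le_parabolic J)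
    ((Subgroup.closure_le _).2 hIP)]
  rfl

open Classical in
theorem stBN_subBN (P : Cfsg.BNPair G) (J : Finset G) (hJ : (↑J : Set G) ⊆ P.S)
    (g : ↥(P.parabolic (↑J : Set G))) :
    stBN (subBN P ↑J hJ) (J.subtype (· ∈ P.parabolic (↑J : Set G))) g =
      ∑ I ∈ J.powerset, (-1 : ℂ) ^ I.card *
        fixedPointCharacter ((P.parabolic (↑I : Set G)).subgroupOf (P.parabolic (↑J : Set G))) g := by
  unfold stBN
  refine Finset.sum_bij' (fun I' _ => I'.map (Function.Embedding.subtype _))
    (fun I _ => I.subtype _) ?_ ?_ ?_ ?_ ?_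
  · intro I' hI'
    rw [Finset.mem_powerset] at hI' ⊢
    intro x hx
    obtain ⟨y, hy, rfl⟩ := Finset.mem_map.1 hx
    exact Finset.mem_subtype.1 (hI' hy)
  · intro I hI
    rw [Finset.mem_powerset] at hI ⊢
    intro x hx
    exact Finset.mem_subtype.2 (hI (Finset.mem_subtype.1 hx))
  · intro I' _
    ext x
    simp
  · intro I hI
    rw [Finset.mem_powerset] at hI
    ext x
    simp only [Finset.mem_map, Finset.mem_subtype, Function.Embedding.coe_subtype, Subtype.exists,
      exists_and_left, exists_prop, exists_eq_right_right, and_iff_left_iff_imp]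
    intro hx
    exact uni1_subset P _ (hI hx)
  · intro I' hI'
    rw [Finset.mem_powerset] at hI'
    rw [Finset.card_map]
    congr 2
    have hsub : (↑(I'.map (Function.Embedding.subtype (· ∈ P.parabolic (↑J : Set G)))) : Set G)
        ⊆ (↑J : Set G) := by
      intro x hx
      obtain ⟨y, hy, rfl⟩ := Finset.mem_map.1 (Finset.mem_coe.1 hx)
      exact Finset.mem_subtype.1 (hI' hy)
    rw [← subBN_parabolic P hJ hsub]
    congr 1
    ext x
    simp

end Cfsg.Agent.Lib.Helper22
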