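import Cfsg.Agent.Lib.Helper44.StChar

/-! counting lemmas for permutation characters -/

set_option autoImplicit false

namespace Cfsg.Agent.Lib.Helper22
open Cfsg

/-- the permutation character is a class function. -/
theorem fixedPointCharacter_conj {Γ : Type*} [Group Γ] (K : Subgroup Γ) (x g : Γ) :
    fixedPointCharacter K (x * g * x⁻¹) = fixedPointCharacter K g := by
  unfold fixedPointCharacter
  congr 1
  refine Nat.card_congr ⟨fun c => ⟨x⁻¹ • c.1, ?_⟩, fun c => ⟨x • c.1, ?_⟩, ?_, ?_⟩
  · have h := c.2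
    rw [MulAction.mem_fixedBy] at h ⊢
    nth_rewrite 2 [← h]
    simp only [smul_smul]
    congr 1
    group
  · have h := c.2
    rw [MulAction.mem_fixedBy] at h ⊢
    nth_rewrite 2 [← h]
    simp only [smul_smul]
    congr 1
    group
  · intro c
    apply Subtype.ext
    simp
  · intro c
    apply Subtype.ext
    simp

open Classical in
theorem uni2_sum_nat {Γ : Type*} [Group Γ] [Fintype Γ] (K : Subgroup Γ) (Q : Γ → Prop)
    (hQ : ∀ g x, Q (x * g * x⁻¹) ↔ Q g) :
    ∑ g : Γ, (if Q g then Nat.card (MulAction.fixedBy (Γ ⧸ K) g) else 0)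
      = K.index * Nat.card {k : K // Q k} := by
  have e1 : ∀ g : Γ, Nat.card (MulAction.fixedBy (Γ ⧸ K) g)
      = ∑ c : Γ ⧸ K, if g • c = c then 1 else 0 := by
    intro g
    rw [Nat.card_eq_fintype_card, ← Finset.card_filter]
    exact Fintype.card_subtype _
  have e2 : ∀ c : Γ ⧸ K, (∑ g : Γ, if Q g then (if g • c = c then 1 else 0) else 0)
      = Nat.card {k : K // Q k} := by
    intro c
    induction c using QuotientGroup.induction_on with
    | H x =>
      have hst : ∀ g : Γ, g • (x : Γ ⧸ K) = x ↔ x⁻¹ * g * x ∈ K := by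
        intro g
        rw [← K.inv_mem_iff]
        change ((g * x : Γ) : Γ ⧸ K) = x ↔ _
        rw [QuotientGroup.eq]
        simp [mul_assoc]
      simp_rw [← ite_and]
      rw [← Finset.card_filter, ← Fintype.card_subtype, ← Nat.card_eq_fintype_card]
      refine Nat.card_congr ⟨fun g => ⟨⟨x⁻¹ * g.1 * x, (hst _).1 g.2.2⟩, ?_⟩,
        fun k => ⟨x * k.1.1 * x⁻¹, ?_, ?_⟩, ?_, ?_⟩
      · have := (hQ g.1 x⁻¹).2 g.2.1
        simpa using this
      · exact (hQ _ _).2 k.2
      · rw [hst]
        have : x⁻¹ * (x * k.1.1 * x⁻¹) * x = k.1.1 := by group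
        rw [this]
        exact k.1.2
      · intro g
        apply Subtype.ext
        show x * (x⁻¹ * g.1 * x) * x⁻¹ = g.1
        group
      · intro k
        apply Subtype.ext
        apply Subtype.ext
        show x⁻¹ * (x * k.1.1 * x⁻¹) * x = k.1.1
        group
  simp_rw [e1]
  have e3 : ∀ g : Γ, (if Q g then ∑ c : Γ ⧸ K, (if g • c = c then 1 else 0) else 0)
      = ∑ c : Γ ⧸ K, if Q g then (if g • c = c then 1 else 0) else 0 := by
    intro g
    split_ifs
    · rfl
    · simp
  simp_rw [e3]
  rw [Finset.sum_comm]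
  simp_rw [e2]
  rw [Finset.sum_const, Finset.card_univ, smul_eq_mul, Subgroup.index,
    Nat.card_eq_fintype_card (α := Γ ⧸ K)]

open Classical in
/-- double counting. -/
theorem sum_fixedPointCharacter {Γ : Type*} [Group Γ] [Fintype Γ] (K : Subgroup Γ) (Q : Γ → Prop)
    (hQ : ∀ g x, Q (x * g * x⁻¹) ↔ Q g) :
    ∑ g : Γ, (if Q g then fixedPointCharacter K g else 0) = (K.index : ℂ) * (Nat.card {k : K // Q k} : ℂ) := by
  have h := uni2_sum_nat K Q hQ
  rw [← Nat.cast_mul, ← h, Nat.cast_sum]
  refine Finset.sum_congr rfl (fun g _ => ?_)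
  unfold fixedPointCharacter
  split_ifs <;> simp

open Classical in
/-- Moebius inversion on the subsets of `T`. -/
theorem alt_alt_sum {α : Type*} (T : Finset α) (f : Finset α → ℂ) :
    ∑ J ∈ T.powerset, (-1 : ℂ) ^ J.card * ∑ I ∈ J.powerset, (-1 : ℂ) ^ I.card * f I = f T := by
  induction T using Finset.induction_on generalizing f with
  | empty => simp
  | insert a T ha ih =>
    rw [Finset.sum_powerset_insert ha, ← Finset.sum_add_distrib, ← ih (fun I => f (insert a I))]
    refine Finset.sum_congr rfl (fun J hJ => ?_)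
    have haJ : a ∉ J := fun h => ha (Finset.mem_powerset.1 hJ h)
    rw [Finset.sum_powerset_insert haJ, Finset.card_insert_of_notMem haJ]
    have : ∑ I ∈ J.powerset, (-1 : ℂ) ^ (insert a I).card * f (insert a I)
        = - ∑ I ∈ J.powerset, (-1 : ℂ) ^ I.card * f (insert a I) := by
      rw [← Finset.sum_neg_distrib]
      refine Finset.sum_congr rfl (fun I hI => ?_)
      have haI : a ∉ I := fun h => haJ (Finset.mem_powerset.1 hI h)
      rw [Finset.card_insert_of_notMem haI]
      ring
    rw [this]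
    ring

end Cfsg.Agent.Lib.Helper22
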