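import Cfsg.Agent.Lib.Helper18.Uni3Gen
import Cfsg.Agent.Lib.Helper23.NTabE7

set_option autoImplicit false
set_option maxRecDepth 1000000
set_option maxHeartbeats 0
set_option synthInstance.maxSize 2000
set_option synthInstance.maxHeartbeats 0

namespace Cfsg.Agent.Lib.Helper18.Uni3
open Cfsg.Lie Cfsg.Agent.Lib.Helper23 Cfsg.Agent.Lib.Helper22

theorem linSimpE7 : ∀ i < tbE7.l, ∀ j < tbE7.l,
    dc (coLook tbE7.l tbE7.CO (sLook Helper23.siE7 i) j) = if i = j then 1 else 0 := by decide +kernel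

theorem linDescE7 : ∀ r < tbE7.n, ∃ j < tbE7.l, dc (coLook tbE7.l tbE7.CO r j) ≠ 0 := by decide +kernel

theorem linLinE7 : ∀ j < tbE7.l, ∀ r < tbE7.n, ∀ i < tbE7.l,
    dc (coLook tbE7.l tbE7.CO (nTgt tbE7.n ntE7 j r) i) =
    ∑ k ∈ Finset.range tbE7.l, dc (coLook tbE7.l tbE7.CO r k) *
      dc (coLook tbE7.l tbE7.CO (nTgt tbE7.n ntE7 j (sLook Helper23.siE7 k)) i) := by decide +kernel

theorem linTabE7 : LinTab tbE7 ntE7 Helper23.siE7 := ⟨linSimpE7, linDescE7, linLinE7⟩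

end Cfsg.Agent.Lib.Helper18.Uni3
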