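import Cfsg.Agent.Lib.Helper18.Uni3Gen
import Cfsg.Agent.Lib.Helper23.NTabF4

set_option autoImplicit false
set_option maxRecDepth 1000000
set_option maxHeartbeats 0
set_option synthInstance.maxSize 2000
set_option synthInstance.maxHeartbeats 0

namespace Cfsg.Agent.Lib.Helper18.Uni3
open Cfsg.Lie Cfsg.Agent.Lib.Helper23 Cfsg.Agent.Lib.Helper22

theorem linSimpF4 : ∀ i < tbF4.l, ∀ j < tbF4.l,
    dc (coLook tbF4.l tbF4.CO (sLook Helper23.siF4 i) j) = if i = j then 1 else 0 := by decide +kernel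

theorem linDescF4 : ∀ r < tbF4.n, ∃ j < tbF4.l, dc (coLook tbF4.l tbF4.CO r j) ≠ 0 := by decide +kernel

theorem linLinF4 : ∀ j < tbF4.l, ∀ r < tbF4.n, ∀ i < tbF4.l,
    dc (coLook tbF4.l tbF4.CO (nTgt tbF4.n ntF4 j r) i) =
    ∑ k ∈ Finset.range tbF4.l, dc (coLook tbF4.l tbF4.CO r k) *
      dc (coLook tbF4.l tbF4.CO (nTgt tbF4.n ntF4 j (sLook Helper23.siF4 k)) i) := by decide +kernel

theorem linTabF4 : LinTab tbF4 ntF4 Helper23.siF4 := ⟨linSimpF4, linDescF4, linLinF4⟩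

end Cfsg.Agent.Lib.Helper18.Uni3
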