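import Cfsg.Agent.Lib.Helper18.Uni3TabG2
import Cfsg.Agent.Lib.Helper18.Uni3TabB2
import Cfsg.Agent.Lib.Helper18.Uni3TabD4
import Cfsg.Agent.Lib.Helper18.Uni3TabF4
import Cfsg.Agent.Lib.Helper18.Uni3TabE6
import Cfsg.Agent.Lib.Helper18.Uni3TabE7
import Cfsg.Agent.Lib.Helper18.Uni3TabE8
import Cfsg.Agent.Lib.Helper23.AllRoot

/-! the longest element of a parabolic subgroup of the Weyl group -/

set_option autoImplicit false

namespace Cfsg.Agent.Lib.Helper22
open Cfsg.Lie Matrix Cfsg.Agent.Lib.Helper23 Cfsg.Agent.Lib.Helper18.Uni3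

/-- there is a word in `J` sending all positive roots of `Φ_J` to negative roots. -/
theorem exists_longJ {D : ChevalleyDatum} (hD : D ∈ [chevG2, chevB2, chevD4, chevF4, chevE6, chevE7, chevE8])
    (J : Set ℕ) : ∃ L : List ℕ, (∀ i ∈ L, i ∈ J ∧ i < D.rank) ∧
      ∀ r, D.IsPosRoot r → D.InRootSub J r → D.IsNegRoot (wact D L r) := by
  have hR := rootFacts_of_mem hD
  simp only [List.mem_cons, List.not_mem_nil, or_false] at hD
  rcases hD with rfl | rfl | rfl | rfl | rfl | rfl | rfl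
  · exact longJ_of hR tbG2_valid ntG2_valid ntG2_facts linTabG2 J
  · exact longJ_of hR tbB2_valid ntB2_valid ntB2_facts linTabB2 J
  · exact longJ_of hR tbD4_valid ntD4_valid ntD4_facts linTabD4 J
  · exact longJ_of hR tbF4_valid ntF4_valid ntF4_facts linTabF4 J
  · exact longJ_of hR tbE6_valid ntE6_valid ntE6_facts linTabE6 J
  · exact longJ_of hR tbE7_valid ntE7_valid ntE7_facts linTabE7 J
  · exact longJ_of hR tbE8_valid ntE8_valid ntE8_facts linTabE8 J

end Cfsg.Agent.Lib.Helper22
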