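import Cfsg.Agent.Lib.Helper23.ChevN

/-! the longest element of a parabolic subgroup of the Weyl group: abstract part -/

set_option autoImplicit false

namespace Cfsg.Agent.Lib.Helper18.Uni3
open Cfsg.Lie Cfsg.Agent.Lib.Helper23

variable {D : ChevalleyDatum}

/-- coefficient of the coroot -/
def cc (D : ChevalleyDatum) (r i : ℕ) : ℤ := (D.coroot.getD r #[]).getD i 0

theorem cc_nonneg {r : ℕ} (hr : D.IsPosRoot r) (j : ℕ) : 0 ≤ cc D r j := by
  unfold cc
  rw [Array.getD_eq_getD_getElem?]
  cases h : (D.coroot.getD r #[])[j]? with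
  | none => simp
  | some c =>
    simp only [Option.getD_some]
    exact hr.2 c (Array.mem_toList_iff.2 (Array.mem_of_getElem? h))

theorem cc_nonpos {r : ℕ} (hr : D.IsNegRoot r) (j : ℕ) : cc D r j ≤ 0 := by
  unfold cc
  rw [Array.getD_eq_getD_getElem?]
  cases h : (D.coroot.getD r #[])[j]? with
  | none => simp
  | some c =>
    simp only [Option.getD_some]
    exact hr.2 c (Array.mem_toList_iff.2 (Array.mem_of_getElem? h))

/-- linearity of the action of a word -/
theorem wact_lin (hR : RootFacts D)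
    (hsimp : ∀ i < D.rank, ∀ j < D.rank, cc D (D.simple i) j = if i = j then 1 else 0)
    (hlin : ∀ j < D.rank, ∀ r < D.nroots, ∀ i < D.rank, cc D (D.reflectRoot j r) i =
      ∑ k ∈ Finset.range D.rank, cc D r k * cc D (D.reflectRoot j (D.simple k)) i)
    (L : List ℕ) (hL : ∀ i ∈ L, i < D.rank) (r : ℕ) (hr : r < D.nroots) (i : ℕ) (hi : i < D.rank) :
    cc D (wact D L r) i = ∑ k ∈ Finset.range D.rank, cc D r k * cc D (wact D L (D.simple k)) i := by
  induction L generalizing i with
  | nil =>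
    simp only [wact_nil]
    rw [Finset.sum_eq_single i]
    · rw [hsimp i hi i hi]; simp
    · intro k hk hki
      rw [hsimp k (Finset.mem_range.1 hk) i hi, if_neg hki, mul_zero]
    · intro h
      exact absurd (Finset.mem_range.2 hi) h
  | cons j L ih =>
    have hj : j < D.rank := hL j (by simp)
    have hL' : ∀ i ∈ L, i < D.rank := fun i hi => hL i (by simp [hi])
    simp only [wact_cons]
    rw [hlin j hj _ (hR.wact_lt hL' hr) i hi]
    have e1 : ∀ m ∈ Finset.range D.rank, cc D (wact D L r) m * cc D (D.reflectRoot j (D.simple m)) i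
        = ∑ k ∈ Finset.range D.rank, cc D r k * (cc D (wact D L (D.simple k)) m *
          cc D (D.reflectRoot j (D.simple m)) i) := by
      intro m hm
      rw [ih hL' m (Finset.mem_range.1 hm), Finset.sum_mul]
      exact Finset.sum_congr rfl (fun k _ => by ring)
    rw [Finset.sum_congr rfl e1, Finset.sum_comm]
    refine Finset.sum_congr rfl (fun k hk => ?_)
    rw [hlin j hj _ (hR.wact_lt hL' (hR.simpleF k (Finset.mem_range.1 hk)).1) i hi, Finset.mul_sum]

open Classical in
/-- the number of positive roots made negative -/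
noncomputable def nInv (D : ChevalleyDatum) (L : List ℕ) : Finset ℕ :=
  (Finset.range D.nroots).filter fun r => D.IsPosRoot r ∧ D.IsNegRoot (wact D L r)

theorem nInv_lt (hR : RootFacts D) {L : List ℕ} (hL : ∀ i ∈ L, i < D.rank) {j : ℕ}
    (hj : j < D.rank) (hpos : D.IsPosRoot (wact D L (D.simple j))) :
    (nInv D L).card < (nInv D (L ++ [j])).card := by
  classical
  have hsj : D.reflectRoot j (D.simple j) = D.neg (D.simple j) := by
    simp [ChevalleyDatum.reflectRoot]
  have hsl : D.simple j < D.nroots := (hR.simpleF j hj).1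
  have hinj : Set.InjOn (D.reflectRoot j) (nInv D L : Set ℕ) := by
    intro a ha b hb hab
    have ha' := (Finset.mem_filter.1 ha).1
    have hb' := (Finset.mem_filter.1 hb).1
    rw [← (hR.reflF j hj a (Finset.mem_range.1 ha')).2.1, hab,
      (hR.reflF j hj b (Finset.mem_range.1 hb')).2.1]
  rw [← Finset.card_image_of_injOn hinj]
  apply Finset.card_lt_card
  rw [Finset.ssubset_iff_of_subset]
  · refine ⟨D.simple j, ?_, ?_⟩
    · refine Finset.mem_filter.2 ⟨Finset.mem_range.2 hsl, hR.simpleF j hj, ?_⟩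
      rw [wact_append, wact_cons, wact_nil, hsj, hR.wact_neg hL hsl]
      exact (hR.negF _ hpos.1).2.2.2.2.1 hpos
    · intro h
      obtain ⟨r, hr, hrj⟩ := Finset.mem_image.1 h
      obtain ⟨hr1, hr2, -⟩ := Finset.mem_filter.1 hr
      have : r = D.neg (D.simple j) := by
        rw [← (hR.reflF j hj r (Finset.mem_range.1 hr1)).2.1, hrj, hsj]
      rw [this] at hr2
      exact (hR.negF _ hr2.1).2.2.2.1 ⟨hr2, (hR.negF _ hsl).2.2.2.2.1 (hR.simpleF j hj)⟩
  · intro x hx
    obtain ⟨r, hr, rfl⟩ := Finset.mem_image.1 hx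
    obtain ⟨hr1, hr2, hr3⟩ := Finset.mem_filter.1 hr
    have hrl := Finset.mem_range.1 hr1
    have hne : r ≠ D.simple j := by
      rintro rfl
      exact (hR.negF _ hpos.1).2.2.2.1 ⟨hpos, hr3⟩
    refine Finset.mem_filter.2 ⟨Finset.mem_range.2 (hR.reflF j hj r hrl).1,
      hR.reflPos j hj r hrl hr2 hne, ?_⟩
    rw [wact_append, wact_cons, wact_nil, (hR.reflF j hj r hrl).2.1]
    exact hr3

theorem exists_max (J : Set ℕ) : ∃ L : List ℕ, (∀ i ∈ L, i ∈ J ∧ i < D.rank) ∧
    ∀ L' : List ℕ, (∀ i ∈ L', i ∈ J ∧ i < D.rank) → (nInv D L').card ≤ (nInv D L).card := by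
  by_contra hcon
  push Not at hcon
  have hall : ∀ n : ℕ, ∃ L : List ℕ, (∀ i ∈ L, i ∈ J ∧ i < D.rank) ∧ n ≤ (nInv D L).card := by
    intro n
    induction n with
    | zero => exact ⟨[], by simp, Nat.zero_le _⟩
    | succ n ih =>
      obtain ⟨L, hL, hn⟩ := ih
      obtain ⟨L', hL', hlt⟩ := hcon L hL
      exact ⟨L', hL', by omega⟩
  obtain ⟨L, -, hn⟩ := hall (D.nroots + 1)
  have : (nInv D L).card ≤ D.nroots := by
    have := Finset.card_filter_le (Finset.range D.nroots)
      (fun r => D.IsPosRoot r ∧ D.IsNegRoot (wact D L r))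
    rw [Finset.card_range] at this
    unfold nInv
    convert this
  omega

theorem longJ_abs (hR : RootFacts D)
    (hsimp : ∀ i < D.rank, ∀ j < D.rank, cc D (D.simple i) j = if i = j then 1 else 0)
    (hdesc : ∀ r, D.IsPosRoot r → ∃ j < D.rank, cc D r j ≠ 0)
    (hlin : ∀ j < D.rank, ∀ r < D.nroots, ∀ i < D.rank, cc D (D.reflectRoot j r) i =
      ∑ k ∈ Finset.range D.rank, cc D r k * cc D (D.reflectRoot j (D.simple k)) i)
    (J : Set ℕ) : ∃ L : List ℕ, (∀ i ∈ L, i ∈ J ∧ i < D.rank) ∧
      ∀ r, D.IsPosRoot r → D.InRootSub J r → D.IsNegRoot (wact D L r) := by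
  obtain ⟨L, hL, hmax⟩ := exists_max (D := D) J
  have hL' : ∀ i ∈ L, i < D.rank := fun i hi => (hL i hi).2
  have hneg : ∀ j ∈ J, j < D.rank → D.IsNegRoot (wact D L (D.simple j)) := by
    intro j hjJ hj
    have hlt := hR.wact_lt hL' (hR.simpleF j hj).1
    rcases (hR.negF _ hlt).2.2.1 with h | h
    · exfalso
      have h1 := nInv_lt hR hL' hj h
      have h2 := hmax (L ++ [j]) (by
        intro i hi
        rcases List.mem_append.1 hi with h3 | h3
        · exact hL i h3
        · rw [List.mem_singleton.1 h3]; exact ⟨hjJ, hj⟩)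
      omega
    · exact h
  refine ⟨L, hL, fun r hr hrJ => ?_⟩
  have hlt := hR.wact_lt hL' hr.1
  have hle : ∀ i < D.rank, cc D (wact D L r) i ≤ 0 := by
    intro i hi
    rw [wact_lin hR hsimp hlin L hL' r hr.1 i hi]
    apply Finset.sum_nonpos
    intro k hk
    have hk' := Finset.mem_range.1 hk
    by_cases hkJ : k ∈ J
    · exact mul_nonpos_of_nonneg_of_nonpos (cc_nonneg hr k) (cc_nonpos (hneg k hkJ hk') i)
    · have : cc D r k = 0 := hrJ.2 k hk' hkJ
      rw [this, zero_mul]
  rcases (hR.negF _ hlt).2.2.1 with h | h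
  · exfalso
    obtain ⟨j, hj, hne⟩ := hdesc _ h
    have h1 := cc_nonneg h j
    have h2 := hle j hj
    exact hne (le_antisymm h2 h1)
  · exact h

end Cfsg.Agent.Lib.Helper18.Uni3
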