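import Cfsg.Agent.Lib.Helper18.Uni3Abs
import Cfsg.Agent.Lib.Helper23.NLet

/-! the longest element of a parabolic subgroup of the Weyl group: reduction to packed tables -/

set_option autoImplicit false

namespace Cfsg.Agent.Lib.Helper18.Uni3
open Cfsg.Lie Cfsg.Agent.Lib.Helper23 Cfsg.Agent.Lib.Helper22

/-- the table facts -/
structure LinTab (T : Tb) (NT SI : ℕ) : Prop where
  simp : ∀ i < T.l, ∀ j < T.l, dc (coLook T.l T.CO (sLook SI i) j) = if i = j then 1 else 0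
  desc : ∀ r < T.n, ∃ j < T.l, dc (coLook T.l T.CO r j) ≠ 0
  lin : ∀ j < T.l, ∀ r < T.n, ∀ i < T.l, dc (coLook T.l T.CO (nTgt T.n NT j r) i) =
    ∑ k ∈ Finset.range T.l, dc (coLook T.l T.CO r k) * dc (coLook T.l T.CO (nTgt T.n NT j (sLook SI k)) i)

theorem longJ_of {D : ChevalleyDatum} {T : Tb} {NT SI : ℕ} (hR : RootFacts D)
    (V : T.Valid D) (W : NValid T NT SI D) (Fa : NFacts T NT SI D) (P : LinTab T NT SI) (J : Set ℕ) :
    ∃ L : List ℕ, (∀ i ∈ L, i ∈ J ∧ i < D.rank) ∧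
      ∀ r, D.IsPosRoot r → D.InRootSub J r → D.IsNegRoot (wact D L r) := by
  have hn := V.hn
  have hl := V.hl
  have hcf : ∀ r < T.n, ∀ i < T.l, cc D r i = dc (coLook T.l T.CO r i) := fun r hr i hi => V.co_eq hi hr
  refine longJ_abs hR ?_ ?_ ?_ J
  · intro i hi j hj
    rw [← hl] at hi hj
    rw [(W.hs i hi).1, hcf _ (W.hs i hi).2 j hj, P.simp i hi j hj]
  · intro r hr
    have h1 := hr.1
    rw [← hn] at h1
    obtain ⟨j, hj, h3⟩ := P.desc r h1
    refine ⟨j, hl ▸ hj, ?_⟩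
    rw [hcf r h1 j hj]; exact h3
  · intro j hj r hr i hi
    rw [← hl] at hj hi ⊢
    rw [← hn] at hr
    rw [Fa.refl j hj r hr, hcf _ (Fa.tgt j hj r hr).1 i hi, P.lin j hj r hr i hi]
    refine Finset.sum_congr rfl (fun k hk => ?_)
    have hk' := Finset.mem_range.1 hk
    rw [hcf r hr k hk', (W.hs k hk').1, Fa.refl j hj _ (W.hs k hk').2,
      hcf _ (Fa.tgt j hj _ (W.hs k hk').2).1 i hi]

end Cfsg.Agent.Lib.Helper18.Uni3
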