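import Cfsg.Agent.Lib.Helper18.Uni3Gen
import Cfsg.Agent.Lib.Helper23.NTabG2

set_option autoImplicit false
set_option maxRecDepth 1000000
set_option maxHeartbeats 0
set_option synthInstance.maxSize 2000
set_option synthInstance.maxHeartbeats 0

namespace Cfsg.Agent.Lib.Helper18.Uni3
open Cfsg.Lie Cfsg.Agent.Lib.Helper23 Cfsg.Agent.Lib.Helper22

theorem linSimpG2 : ∀ i < tbG2.l, ∀ j < tbG2.l,
    dc (coLook tbG2.l tbG2.CO (sLook Helper23.siG2 i) j) = if i = j then 1 else 0 := by decide +kernel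

theorem linDescG2 : ∀ r < tbG2.n, ∃ j < tbG2.l, dc (coLook tbG2.l tbG2.CO r j) ≠ 0 := by decide +kernel

theorem linLinG2 : ∀ j < tbG2.l, ∀ r < tbG2.n, ∀ i < tbG2.l,
    dc (coLook tbG2.l tbG2.CO (nTgt tbG2.n ntG2 j r) i) =
    ∑ k ∈ Finset.range tbG2.l, dc (coLook tbG2.l tbG2.CO r k) *
      dc (coLook tbG2.l tbG2.CO (nTgt tbG2.n ntG2 j (sLook Helper23.siG2 k)) i) := by decide +kernel

theorem linTabG2 : LinTab tbG2 ntG2 Helper23.siG2 := ⟨linSimpG2, linDescG2, linLinG2⟩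

end Cfsg.Agent.Lib.Helper18.Uni3
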